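import Cfsg.Agent.H17.Ortho
import Cfsg.Agent.H1.Coprime2
import Cfsg.Agent.H15.Pi
import Cfsg.Agent.H10.SylowIn
import Cfsg.Agent.S0238

/-! A Brauer-Fowler type bound for groups containing a four-group with small centralizers. -/

set_option autoImplicit false
set_option linter.unusedSectionVars false

namespace H19.BF
open Subgroup Finset Cfsg
open scoped Pointwise
universe u

variable {G : Type*} [Group G] [Finite G]

/-- the size of the conjugacy class -/
noncomputable abbrev cl (g : G) : ℕ := (centralizer ({g} : Set G)).index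

theorem index_anti {H K : Subgroup G} (h : H ≤ K) : K.index ≤ H.index :=
  Nat.le_of_dvd (Nat.pos_of_ne_zero FiniteIndex.index_ne_zero) (index_dvd_of_le h)

theorem cl_mul (g h : G) : cl (g * h) ≤ cl g * cl h :=
  le_trans (index_anti fun _ hx => mem_centralizer_singleton_iff.2 (Commute.mul_right
    (mem_centralizer_singleton_iff.1 (mem_inf.1 hx).1)
    (mem_centralizer_singleton_iff.1 (mem_inf.1 hx).2))) index_inf_le

theorem cl_inv (g : G) : cl g⁻¹ ≤ cl g :=
  index_anti fun _ hx => mem_centralizer_singleton_iff.2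
    (Commute.inv_right (mem_centralizer_singleton_iff.1 hx))

theorem cl_conj (g x : G) : cl (x * g * x⁻¹) = cl g :=
  (H17.index_centralizer_of_isConj (isConj_iff.2 ⟨x, rfl⟩)).symm

theorem index_cent_le {S : Set G} {M n : ℕ} (h : ∀ g ∈ S, cl g ≤ M) (hn : S.ncard ≤ n) (hM : 0 < M) :
    (centralizer S).index ≤ M ^ n := by
  have := Fintype.ofFinite S
  rw [centralizer_eq_iInf, iInf_subtype']
  refine (index_iInf_le _).trans ((prod_le_pow_card _ _ M fun (g : S) _ => h g g.2).trans ?_)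
  rw [card_univ, ← Nat.card_eq_fintype_card]
  exact Nat.pow_le_pow_right hM hn

theorem many [Fintype G] {s : G} (hs : orderOf s = 2) {c : ℕ}
    (hc : Nat.card (centralizer ({s} : Set G)) ≤ c) :
    Nat.card G ≤ 2 * c ^ 2 * #{g : G | cl g ≤ 2 * c ^ 2} := by
  classical
  set I : Finset G := {t | orderOf t = 2}
  have h1 : Nat.card G ≤ c * #I := by
    rw [← card_mul_index (centralizer {s}), ← H17.card_filter_isConj]
    refine Nat.mul_le_mul hc (card_le_card fun t ht => ?_)
    obtain ⟨x, rfl⟩ := isConj_iff.1 (mem_filter.1 ht).2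
    simpa [I] using ((MulAut.conj x).orderOf_eq s).trans hs
  have h2 : #I * #I ≤ ∑ x : G, Nat.card (centralizer ({x} : Set G)) := by
    rw [← card_product, card_eq_sum_card_fiberwise (f := fun q : G × G => q.1 * q.2) (t := univ)
      fun _ _ => mem_univ _]
    refine sum_le_sum fun x _ => le_trans (le_of_eq ?_) (Cfsg.Agent.S0238.result x).1
    rw [Nat.card_eq_fintype_card, Fintype.card_subtype]
    congr 1
    ext q
    simp [I, and_assoc]
  have h3 : 2 * c ^ 2 * ∑ x : G, Nat.card (centralizer ({x} : Set G)) ≤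
      2 * c ^ 2 * #{g : G | cl g ≤ 2 * c ^ 2} * Nat.card G + Nat.card G * Nat.card G := by
    rw [← sum_filter_add_sum_filter_not univ fun g : G => cl g ≤ 2 * c ^ 2, mul_add, mul_assoc _ (#_)]
    refine add_le_add (Nat.mul_le_mul_left _ ((sum_le_card_nsmul _ _ _ fun x _ =>
      card_le_card_group _).trans_eq (smul_eq_mul _ _))) ?_
    rw [mul_sum]
    refine (sum_le_card_nsmul _ _ (Nat.card G) fun x hx => ?_).trans ?_
    · rw [← card_mul_index (centralizer {x}), mul_comm]
      exact Nat.mul_le_mul_left _ (not_le.1 (mem_filter.1 hx).2).le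
    · rw [smul_eq_mul, Nat.card_eq_fintype_card]
      exact Nat.mul_le_mul_right _ (card_le_univ _)
  have h4 := Nat.mul_le_mul h1 h1
  have h5 := Nat.mul_le_mul_left (2 * c ^ 2) h2
  refine Nat.le_of_mul_le_mul_right ?_ (Nat.card_pos (α := G))
  nlinarith

theorem exists_K (m : ℕ) : ∃ M : ℕ, 0 < M ∧ ∀ (G : Type u) [Group G] [Fintype G],
    Nat.card G ≤ m * #{g : G | cl g ≤ m} →
      ∃ K : Subgroup G, K.Normal ∧ K.index ≤ m ∧ ∀ g ∈ K, cl g ≤ M := by
  obtain ⟨L, hL⟩ := pow_unbounded_of_one_lt (m : ℚ) (show (1 : ℚ) < 3 / 2 by norm_num)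
  refine ⟨(m + 1) ^ 2 ^ L, by positivity, fun G _ _ h => ?_⟩
  classical
  set A : ℕ → Finset G := fun i => {g | cl g ≤ (m + 1) ^ 2 ^ i}
  have hA : ∀ i, A i * A i ⊆ A (i + 1) := fun i g hg => by
    obtain ⟨x, hx, y, hy, rfl⟩ := Finset.mem_mul.1 hg
    refine mem_filter.2 ⟨mem_univ _, (cl_mul x y).trans ?_⟩
    rw [pow_succ, pow_mul, sq]
    exact Nat.mul_le_mul (mem_filter.1 hx).2 (mem_filter.1 hy).2
  have h0 : ∀ i, Nat.card G ≤ m * #(A i) := fun i => h.trans (Nat.mul_le_mul_left _ (card_le_card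
    fun g hg => mem_filter.2 ⟨mem_univ _, (mem_filter.1 hg).2.trans
      (m.le_succ.trans (Nat.le_self_pow (by positivity) _))⟩))
  obtain ⟨i, hi, hd⟩ : ∃ i < L, (#(A i * A i) : ℚ) < 3 / 2 * #(A i) := by
    by_contra! hn
    have h1 : ∀ i ≤ L, (3 / 2 : ℚ) ^ i * #(A 0) ≤ #(A i) := fun i => by
      induction i with
      | zero => simp
      | succ i ih =>
        intro hi
        have := (hn i hi).trans (Nat.cast_le.2 (card_le_card (hA i)))
        have := ih (Nat.le_of_succ_le hi)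
        rw [pow_succ]
        linarith
    have h2 : (#(A L) : ℚ) ≤ m * #(A 0) := by
      exact_mod_cast ((card_le_univ _).trans_eq Nat.card_eq_fintype_card.symm).trans (h0 0)
    have h3 : (0 : ℚ) < #(A 0) := by
      exact_mod_cast Nat.pos_of_mul_pos_left (Nat.card_pos.trans_le (h0 0))
    nlinarith [h1 L le_rfl]
  have mK : ∀ g, g ∈ invMulSubgroup (A i) hd ↔ ∃ x ∈ A i, ∃ y ∈ A i, x⁻¹ * y = g := fun g => by
    rw [← SetLike.mem_coe, invMulSubgroup_eq_inv_mul]
    exact ⟨fun ⟨x, hx, y, hy, e⟩ => ⟨x⁻¹, by simpa using hx, y, hy, by rwa [inv_inv]⟩,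
      fun ⟨x, hx, y, hy, e⟩ => ⟨x⁻¹, by simpa using hx, y, hy, e⟩⟩
  refine ⟨invMulSubgroup (A i) hd, ⟨fun g hg z => ?_⟩, ?_, fun g hg => ?_⟩
  · obtain ⟨x, hx, y, hy, rfl⟩ := (mK g).1 hg
    exact (mK _).2 ⟨z * x * z⁻¹, by simpa [A, cl_conj] using hx, z * y * z⁻¹,
      by simpa [A, cl_conj] using hy, by group⟩
  · refine Nat.le_of_mul_le_mul_left ?_ (Nat.card_pos (α := invMulSubgroup (A i) hd))
    rw [card_mul_index, mul_comm]
    refine (h0 i).trans (Nat.mul_le_mul_left _ ?_)
    rw [← Set.ncard_coe_finset, ← SetLike.coe_sort_coe, Nat.card_coe_set_eq]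
    exact Set.ncard_le_ncard fun y hy => (mK y).2
      ⟨1, by simp [A, cl, centralizer_eq_top_iff_subset.2, Nat.one_le_iff_ne_zero], y, hy, by simp⟩
  · obtain ⟨x, hx, y, hy, rfl⟩ := (mK g).1 hg
    refine (mem_filter.1 (hA i (Finset.mul_mem_mul (mem_filter.2 ⟨mem_univ _, (cl_inv x).trans
      (mem_filter.1 hx).2⟩) hy))).2.trans (Nat.pow_le_pow_right m.succ_pos ?_)
    exact Nat.pow_le_pow_right two_pos hi

theorem card_biSup_le {A : Subgroup G} (hA : A ≤ centralizer (A : Set G)) {ι : Type*} (s : Finset ι)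
    (L : ι → Subgroup G) {c : ℕ} (h : ∀ i ∈ s, L i ≤ A ∧ Nat.card (L i) ≤ c) :
    Nat.card (⨆ i ∈ s, L i : Subgroup G) ≤ c ^ #s := by
  classical
  induction s using Finset.induction_on with
  | empty => simp
  | insert i s hi ih =>
    have h1 := h i (mem_insert_self _ _)
    have h2 := fun j hj => h j (mem_insert_of_mem hj)
    rw [Finset.iSup_insert, card_insert_of_notMem hi, pow_succ']
    refine (Nat.le_of_dvd (Nat.mul_pos Nat.card_pos Nat.card_pos) (H1.card_sup_dvd ?_)).trans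
      (Nat.mul_le_mul h1.2 (ih h2))
    exact ((h1.1.trans hA).trans (centralizer_le (SetLike.coe_subset_coe.2
      (iSup₂_le fun j hj => (h2 j hj).1)))).trans (centralizer_le_normalizer _)

theorem card_le_core {T C : Subgroup G} (hT : H10.IsSylowIn 2 T C) (hc : C ≤ centralizer (T : Set G)) :
    Nat.card C ≤ Nat.card (piCoreOf {2}ᶜ C) * Nat.card T := by
  have h : normalizer (hT.toSylow : Set C) ≤ centralizer (hT.toSylow : Set C) := fun x _ y hy =>
    Subtype.ext (hc x.2 y hy)
  have h1 := (MonoidHom.ker_transferSylow_isComplement' _ h).card_mul_card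
  rw [← h1, ← Nat.card_congr (subgroupOfEquivOfLe hT.le).toEquiv, piCoreOf, card_map_of_injective C.subtype_injective]
  exact Nat.mul_le_mul_right _ (card_le_of_le (le_sSup ⟨inferInstance,
    H15.isPi_compl_of_not_dvd (MonoidHom.not_dvd_card_ker_transferSylow _ h)⟩))

theorem bound (b c : ℕ) : ∃ N : ℕ, ∀ (G : Type u) [Group G] [Finite G] (E U : Subgroup G),
    (∀ T : Subgroup G, IsPGroup 2 T → Nat.card T ≤ b) → IsMulCommutative E → (∀ x ∈ E, x * x = 1) →
    2 * Nat.card U < Nat.card E → (∀ v ∈ E, v ∉ U → Nat.card (centralizer ({v} : Set G)) ≤ c) →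
    Nat.card G ≤ N := by
  obtain ⟨M, hM, hK⟩ := exists_K.{u} (2 * c ^ 2)
  refine ⟨2 * c ^ 2 * M ^ b * M ^ (b * c) * (b * (c + 1) ^ b), fun G _ _ E U hb hE h2 hU hc => ?_⟩
  classical
  have := Fintype.ofFinite G
  have hE2 : IsPGroup 2 E := fun x => ⟨1, Subtype.ext (by simpa [sq] using h2 x x.2)⟩
  have key : ∀ B ≤ E, (∃ a ∈ E, B ⊔ zpowers a = E) → ∃ v ∈ B, v ∉ U := fun B hB ⟨a, ha, e⟩ => by
    by_contra! hn
    have h3 : Nat.card E ∣ Nat.card B * Nat.card (zpowers a) := e ▸ H1.card_sup_dvd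
      ((hB.trans ((le_centralizer E).trans (centralizer_le (SetLike.coe_subset_coe.2
        (zpowers_le.2 ha))))).trans (centralizer_le_normalizer _))
    have h4 : Nat.card (zpowers a) ≤ 2 := by
      rw [Nat.card_zpowers]; exact orderOf_le_of_pow_eq_one two_pos (by rw [sq, h2 a ha])
    have := (Nat.le_of_dvd (Nat.mul_pos Nat.card_pos Nat.card_pos) h3).trans
      (Nat.mul_le_mul (card_le_of_le hn) h4)
    omega
  obtain ⟨s, hs, hsU⟩ := key E le_rfl ⟨1, one_mem _, by simp⟩
  obtain ⟨K, hKn, hKi, hKM⟩ := hK G (many (orderOf_eq_prime (by rw [sq, h2 s hs])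
    fun h => hsU (by rw [h]; exact one_mem U)) (hc s hs hsU))
  obtain ⟨S, hS, hES⟩ := H10.exists_isSylowIn_ge hE2 (le_top (a := E))
  have hT := hS.inf_normal (N := K) le_top (normalizer_eq_top K).ge
  set T := S ⊓ K
  set C := K ⊓ centralizer (T : Set G)
  set O := piCoreOf {2}ᶜ C
  have hTE : E ≤ normalizer (T : Set G) := (le_inf (hES.trans le_normalizer)
    (by rw [normalizer_eq_top]; exact le_top)).trans inf_normalizer_le_normalizer_inf
  have hOE : E ≤ normalizer (O : Set G) := H15.le_norm_piCoreOf _ ((le_inf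
    (by rw [normalizer_eq_top]; exact le_top) (hTE.trans (H15.norm_le_norm_cent _))).trans
    inf_normalizer_le_normalizer_inf)
  have h1 : Nat.card C ≤ Nat.card O * b := by
    obtain ⟨R, hR⟩ := H10.exists_isSylowIn 2 C
    have hRT : R ≤ T := hT.le_of_le_NN hR.isPGroup (hR.le.trans inf_le_left)
      ((hR.le.trans inf_le_right).trans (centralizer_le_normalizer _))
    exact (card_le_core hR (inf_le_right.trans (centralizer_le hRT))).trans
      (Nat.mul_le_mul_left _ (hb R hR.isPGroup))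
  have hcop : ∀ X ≤ O, (Nat.card E).Coprime (Nat.card X) := fun X hX =>
    (H15.Cfsg.IsPiSubgroup.coprime (H15.IsPGroup.isPi hE2) (H15.isPi_piCoreOf _ C)).coprime_dvd_right (card_dvd_of_le hX)
  set V : Finset G := {v | v ∈ E ∧ v ∉ U}
  have hV : #V ≤ b := le_trans (by
    rw [Nat.card_eq_fintype_card, Fintype.card_subtype]
    exact card_le_card fun v hv => by simp_all [V]) (hb E hE2)
  set D : Finset G := V.biUnion fun v => {x | x ∈ O ⊓ centralizer {v}}
  have hD : #D ≤ b * c := (card_biUnion_le_card_mul _ _ c fun v hv => le_trans (by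
    rw [Nat.card_eq_fintype_card, Fintype.card_subtype]
    exact card_le_card fun x hx => mem_filter.2 ⟨mem_univ _, (mem_filter.1 hx).2.2⟩)
    (hc v (mem_filter.1 hv).2.1 (mem_filter.1 hv).2.2)).trans (Nat.mul_le_mul_right _ hV)
  have h3 : centralizer (D : Set G) ≤ centralizer (O : Set G) := by
    refine le_centralizer_iff.1 (H1.le_of_forall_cocyclic_centralizer_le hOE (hcop _ le_rfl)
      fun B hB h x hx => ?_)
    obtain ⟨v, hv, hvU⟩ := key B hB h
    exact fun y hy => (hy x (mem_biUnion.2 ⟨v, mem_filter.2 ⟨mem_univ _, hB hv, hvU⟩, mem_filter.2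
      ⟨mem_univ _, hx.1, centralizer_le (Set.singleton_subset_iff.2 hv) hx.2⟩⟩)).symm
  set A := O ⊓ centralizer (O : Set G)
  have h4 : Nat.card A ≤ (c + 1) ^ b := by
    refine (card_le_of_le (H1.le_of_forall_cocyclic_centralizer_le (K := A)
      (H := ⨆ v ∈ V, A ⊓ centralizer {v}) ((le_inf hOE (hOE.trans (H15.norm_le_norm_cent _))).trans
      inf_normalizer_le_normalizer_inf) (hcop _ inf_le_left) fun B hB h => ?_)).trans
      ((card_biSup_le (A := A) (inf_le_right.trans (centralizer_le inf_le_left)) _ _ fun v hv =>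
        ⟨inf_le_left, ?_⟩).trans (Nat.pow_le_pow_right c.succ_pos hV))
    · obtain ⟨v, hv, hvU⟩ := key B hB h
      exact le_iSup₂_of_le v (mem_filter.2 ⟨mem_univ _, hB hv, hvU⟩)
        (inf_le_inf_left _ (centralizer_le (Set.singleton_subset_iff.2 hv)))
    · exact ((card_le_of_le inf_le_right).trans
        (hc v (mem_filter.1 hv).2.1 (mem_filter.1 hv).2.2)).trans c.le_succ
  have h5 : (C ⊓ centralizer (O : Set G)).index ≤ 2 * c ^ 2 * M ^ b * M ^ (b * c) := by
    refine index_inf_le.trans (Nat.mul_le_mul (index_inf_le.trans (Nat.mul_le_mul hKi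
      (index_cent_le (fun g hg => hKM g hg.2) (hb T hT.isPGroup) hM))) ((index_anti h3).trans
      (index_cent_le (fun g hg => ?_) (by rwa [Set.ncard_coe_finset]) hM)))
    obtain ⟨v, -, hv⟩ := mem_biUnion.1 hg
    exact hKM g (H15.piCoreOf_le _ C (mem_filter.1 hv).2.1).1
  rw [← index_mul_card (C ⊓ centralizer (O : Set G))]
  refine Nat.mul_le_mul h5 ?_
  have h6 : O.relIndex (C ⊓ centralizer (O : Set G)) ≤ b := by
    refine (relIndex_le_of_le_right inf_le_left FiniteIndex.index_ne_zero).trans ?_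
    rw [← H10.card_mul_relIndex (H15.piCoreOf_le {2}ᶜ C)] at h1
    exact Nat.le_of_mul_le_mul_left h1 Nat.card_pos
  rw [← H10.card_inf_mul_relIndex O, mul_comm, ← inf_assoc, inf_eq_left.2 (H15.piCoreOf_le _ C)]
  exact Nat.mul_le_mul h6 h4

end H19.BF
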