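import Cfsg.Agent.H25.Hall5
import Cfsg.Agent.H25.PrimeSyl
import Cfsg.Agent.H25.Bochert
import Cfsg.Agent.H18.A8a
import Cfsg.Agent.S0711
import Cfsg.Agent.S0713

set_option autoImplicit false

open MulAction Equiv Equiv.Perm Subgroup SubMulAction

namespace H19.D11

/-- Separation: a transitive group moves a small set off itself. -/
theorem sep {H Ω : Type*} [Group H] [Finite H] [MulAction H Ω] [Fintype Ω] [DecidableEq Ω]
    [IsPretransitive H Ω] (T : Finset Ω) (hT : T.card * T.card < Fintype.card Ω) :
    ∃ g : H, ∀ x ∈ T, g • x ∉ T := by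
  classical
  have := Fintype.ofFinite H
  by_contra hc
  push Not at hc
  have key : ∀ x y : Ω, (Finset.univ.filter fun g : H => g • x = y).card * Fintype.card Ω
      = Fintype.card H := by
    intro x y
    obtain ⟨k, hk⟩ := exists_smul_eq H x y
    have e1 : (Finset.univ.filter fun g : H => g • x = y).card = Nat.card (stabilizer H x) := by
      rw [← Fintype.card_coe, ← Nat.card_eq_fintype_card]
      refine Nat.card_congr ⟨fun g => ⟨k⁻¹ * g.1, ?_⟩, fun g => ⟨k * g.1, ?_⟩, ?_, ?_⟩
      · have := (Finset.mem_filter.1 g.2).2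
        rw [mem_stabilizer_iff, mul_smul, this, ← hk, inv_smul_smul]
      · have := g.2
        rw [mem_stabilizer_iff] at this
        simp only [Finset.mem_filter, Finset.mem_univ, true_and, mul_smul, this, hk]
      · intro g; simp
      · intro g; simp
    rw [e1, ← Nat.card_eq_fintype_card (α := H), ← (stabilizer H x).card_mul_index,
      index_stabilizer_of_transitive, Nat.card_eq_fintype_card (α := Ω)]
  have h1 : (Finset.univ : Finset H) ⊆ (T ×ˢ T).biUnion
      fun p => Finset.univ.filter fun g : H => g • p.1 = p.2 := by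
    intro g _
    obtain ⟨x, hx, hx'⟩ := hc g
    exact Finset.mem_biUnion.2 ⟨(x, g • x), Finset.mem_product.2 ⟨hx, hx'⟩, by simp⟩
  have h2 := (Finset.card_le_card h1).trans Finset.card_biUnion_le
  have h3 := Nat.mul_le_mul_right (Fintype.card Ω) h2
  rw [Finset.sum_mul, Finset.sum_congr rfl fun p _ => key p.1 p.2, Finset.sum_const,
    Finset.card_product, smul_eq_mul, Finset.card_univ] at h3
  have : 0 < Fintype.card H := Fintype.card_pos
  nlinarith

variable {α : Type*} [Fintype α] [DecidableEq α]

/-- In a doubly transitive group of degree 11 without the alternating group, nontrivial elements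
move at least five points. -/
theorem supp5 (hα : Fintype.card α = 11) (G : Subgroup (Perm α))
    (h2 : IsMultiplyPretransitive G α 2) (hA : ¬ alternatingGroup α ≤ G) {u : Perm α} (hu : u ∈ G)
    (h4 : u.support.card ≤ 4) : u = 1 := by
  classical
  by_contra h1
  obtain ⟨a, ha⟩ : ∃ a, u a ≠ a := by
    by_contra h; push Not at h; exact h1 (Equiv.ext h)
  have : IsPretransitive G α := isPretransitive_of_is_two_pretransitive
  have : IsPretransitive (stabilizer G a) (ofStabilizer G a) := by
    have := (ofStabilizer.isMultiplyPretransitive (G := G) (n := 1) (a := a)).1 h2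
    exact is_one_pretransitive_iff.1 this
  have := Fintype.ofFinite (ofStabilizer G a)
  have hc : Fintype.card (ofStabilizer G a) = 10 := by
    have := nat_card_ofStabilizer_add_one_eq G a
    rw [Nat.card_eq_fintype_card, Nat.card_eq_fintype_card, hα] at this
    omega
  let T : Finset (ofStabilizer G a) := Finset.univ.filter fun x => u x ≠ x
  have hT : T.card ≤ 3 := by
    have : T.card ≤ (u.support.erase a).card := by
      refine Finset.card_le_card_of_injOn (fun x => (x : α)) ?_ Subtype.val_injective.injOn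
      intro x hx
      have hx' := (Finset.mem_filter.1 hx).2
      simp only [Finset.coe_erase, Set.mem_sdiff, Finset.mem_coe, mem_support, Set.mem_singleton_iff]
      exact ⟨hx', x.2⟩
    rw [Finset.card_erase_of_mem (mem_support.2 ha)] at this
    omega
  obtain ⟨g, hg⟩ := sep (H := stabilizer G a) T (by rw [hc]; nlinarith)
  have ga : (g.1.1 : Perm α) a = a := g.2
  set k : Perm α := g.1.1 with hk
  have hkG : k ∈ G := g.1.2
  have h3 := H25.isThreeCycle_commutator (x := u) (y := k * u * k⁻¹) (a := a) ha (by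
    have : k⁻¹ a = a := by rw [Perm.inv_eq_iff_eq, ga]
    simp only [Perm.mul_apply, this]
    intro h; rw [← ga] at h; exact ha (by rw [ga] at h; exact k.injective (h.trans ga.symm))) (by
    intro z hz
    by_contra hh
    push Not at hh
    have hz' : k⁻¹ z ≠ a := by
      intro h; rw [Perm.inv_eq_iff_eq, ga] at h; exact hz h
    have := hg ⟨k⁻¹ z, hz'⟩ (Finset.mem_filter.2 ⟨Finset.mem_univ _, fun h => hh.2 (by
      have h' : u (k⁻¹ z) = k⁻¹ z := h
      rw [Perm.mul_apply, Perm.mul_apply, h']; simp)⟩)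
    apply this
    refine Finset.mem_filter.2 ⟨Finset.mem_univ _, ?_⟩
    have e : ((g • (⟨k⁻¹ z, hz'⟩ : ofStabilizer G a) : ofStabilizer G a) : α) = z := by
      change k (k⁻¹ z) = z
      simp
    rw [e]; exact hh.1)
  refine hA (alternatingGroup_le_of_isPreprimitive_of_isThreeCycle_mem
    (isPreprimitive_of_is_two_pretransitive h2) h3 ?_)
  have := G.mul_mem (G.mul_mem hkG hu) (G.inv_mem hkG)
  exact G.mul_mem (G.mul_mem (G.mul_mem hu this) (G.inv_mem hu)) (G.inv_mem this)

theorem supp_le {u : Perm α} (s : Finset α) (h : ∀ x ∈ s, u x = x) :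
    u.support.card + s.card ≤ Fintype.card α := by
  rw [← Finset.card_union_of_disjoint]
  · exact Finset.card_le_univ _
  · exact Finset.disjoint_right.2 fun x hx hx' => mem_support.1 hx' (h x hx)

theorem two_fix (hα : Fintype.card α = 11) (G : Subgroup (Perm α))
    (h2 : IsMultiplyPretransitive G α 2) (hA : ¬ alternatingGroup α ≤ G) {u : Perm α} (hu : u ∈ G)
    (he : u ∈ alternatingGroup α) {k : ℕ} (hk : u ^ 2 ^ k = 1) (h7 : u.support.card ≤ 7) :
    u = 1 := by
  by_contra h1
  obtain ⟨j, -, hj⟩ := (Nat.dvd_prime_pow Nat.prime_two).1 (orderOf_dvd_of_pow_eq_one hk)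
  have hd : 2 ∣ orderOf u := by
    rw [hj]; refine dvd_pow_self 2 fun h => h1 ?_
    rw [h, pow_zero] at hj; exact orderOf_eq_one_iff.1 hj
  have ho := orderOf_pow_orderOf_div (orderOf_pos u).ne' hd
  set v := u ^ (orderOf u / 2) with hv
  obtain ⟨c, hc0, hc, hct⟩ := H25.support_prime_order Nat.prime_two ho
  have hs : v.support.card ≤ 7 := (Finset.card_le_card (support_pow_le u _)).trans h7
  have hsg : sign v = 1 := mem_alternatingGroup.1 (pow_mem he _)
  rw [sign_of_cycleType, hct] at hsg
  have hc3 : c ≤ 3 := by omega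
  have : v = 1 := supp5 hα G h2 hA (pow_mem hu _) (by
    interval_cases c
    · omega
    · omega
    · exact absurd hsg (by decide))
  rw [this, orderOf_one] at ho
  omega

theorem nine (hα : Fintype.card α = 11) (G : Subgroup (Perm α))
    (h2 : IsMultiplyPretransitive G α 2) (hA : ¬ alternatingGroup α ≤ G) {R : Type*} [Group R]
    [MulAction R α] [FaithfulSMul R α] (hR : Nat.card R = 9) (hG : ∀ r : R, toPerm r ∈ G)
    (s : Finset α) (hs : s.card = 4) (hf : ∀ r : R, ∀ x ∈ s, r • x = x) : False := by
  classical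
  have : Finite R := Nat.finite_of_card_ne_zero (by omega)
  have : Fact (Nat.Prime 3) := ⟨by norm_num⟩
  have hcomm : ∀ x y : R, x * y = y * x :=
    (IsPGroup.commGroupOfCardEqPrimeSq (p := 3) (by rw [hR]; norm_num)).mul_comm
  have : Nontrivial R := Finite.one_lt_card_iff_nontrivial.1 (by omega)
  obtain ⟨r, hr⟩ := exists_ne (1 : R)
  obtain ⟨e, he⟩ : ∃ e : α, r • e ≠ e := by
    by_contra h; push Not at h
    exact hr (eq_of_smul_eq_smul (α := α) fun x => by rw [h, one_smul])
  have hd : Disjoint (orbit R e).toFinset s := Finset.disjoint_left.2 fun x hx hx' => by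
    obtain ⟨g, rfl⟩ := Set.mem_toFinset.1 hx
    have h1 := hf g⁻¹ _ hx'
    simp only [inv_smul_smul] at h1
    have h2 : e ∈ s := by rw [h1]; exact hx'
    exact he (hf r e h2)
  have h7 : (orbit R e).ncard ≤ 7 := by
    have := Finset.card_le_univ ((orbit R e).toFinset ∪ s)
    rw [Finset.card_union_of_disjoint hd, ← Set.ncard_eq_toFinset_card'] at this
    omega
  have h1 : 1 < (orbit R e).ncard :=
    (Set.one_lt_ncard (Set.toFinite _)).2 ⟨_, mem_orbit e r, _, mem_orbit_self e, he⟩
  have hi := (stabilizer R e).card_mul_index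
  rw [index_stabilizer, hR] at hi
  have h3 : (orbit R e).ncard = 3 := by
    have hdv : (orbit R e).ncard ∣ 9 := Dvd.intro_left _ hi
    generalize (orbit R e).ncard = n at *
    interval_cases n <;> omega
  have : Nontrivial (stabilizer R e) := Finite.one_lt_card_iff_nontrivial.1 (by
    rw [h3] at hi; omega)
  obtain ⟨t, ht⟩ := exists_ne (1 : stabilizer R e)
  have := supp_le (u := toPerm t.1) ((orbit R e).toFinset ∪ s) (by
    intro x hx
    rcases Finset.mem_union.1 hx with hx | hx
    · obtain ⟨g, rfl⟩ := Set.mem_toFinset.1 hx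
      change t.1 • g • e = g • e
      rw [← mul_smul, hcomm, mul_smul, t.2]
    · exact hf _ _ hx)
  rw [Finset.card_union_of_disjoint hd, ← Set.ncard_eq_toFinset_card'] at this
  have h := supp5 hα G h2 hA (hG t.1) (by omega)
  exact ht (Subtype.ext (toPerm_injective (h.trans (toPerm_one _ _).symm)))

theorem two_grp (hα : Fintype.card α = 11) (G : Subgroup (Perm α))
    (h2 : IsMultiplyPretransitive G α 2) (hA : ¬ alternatingGroup α ≤ G) {R : Type*} [Group R]
    [Finite R] [MulAction R α] [FaithfulSMul R α] (hR : IsPGroup 2 R)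
    (hG : ∀ r : R, toPerm r ∈ G) (he : ∀ r : R, toPerm r ∈ alternatingGroup α) {a b : α}
    (hab : a ≠ b) (ha : ∀ r : R, r • a = a) (hb : ∀ r : R, r • b = b) :
    ∃ c, c ≠ a ∧ c ≠ b ∧ (∀ r : R, r • c = c) ∧ ∀ d, d ≠ a → d ≠ b → d ≠ c →
      (orbit R d).ncard = Nat.card R := by
  classical
  have hm := hR.card_modEq_card_fixedPoints α
  rw [Nat.card_eq_fintype_card, hα] at hm
  obtain ⟨c, hc, hca, hcb⟩ : ∃ c ∈ fixedPoints R α, c ≠ a ∧ c ≠ b := by
    by_contra h
    push Not at h
    have : fixedPoints R α = {a, b} := by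
      ext x
      simp only [Set.mem_insert_iff, Set.mem_singleton_iff]
      refine ⟨fun hx => or_iff_not_imp_left.2 (h x hx), ?_⟩
      rintro (rfl | rfl)
      exacts [ha, hb]
    rw [this, Nat.card_coe_set_eq, Set.ncard_pair hab] at hm
    exact absurd hm (by decide)
  refine ⟨c, hca, hcb, hc, fun d h1 h3 h4 => ?_⟩
  have : stabilizer R d = ⊥ := by
    rw [eq_bot_iff]
    intro r hr
    obtain ⟨k, hk⟩ := hR r
    have := supp_le (u := toPerm r) {a, b, c, d} (by
      intro x hx
      simp only [Finset.mem_insert, Finset.mem_singleton] at hx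
      rcases hx with rfl | rfl | rfl | rfl
      exacts [ha r, hb r, hc r, hr])
    rw [Finset.card_eq_four.2 ⟨a, b, c, d, hab, hca.symm, h1.symm, hcb.symm, h3.symm, h4.symm,
      rfl⟩] at this
    have h := two_fix hα G h2 hA (hG r) (he r) (k := k)
      (by rw [← toPermHom_apply, ← map_pow, hk, map_one]) (by omega)
    exact mem_bot.2 (toPerm_injective (h.trans (toPerm_one _ _).symm))
  rw [← index_stabilizer, this, index_bot]

omit [DecidableEq α] in
theorem card_two (hα : Fintype.card α = 11) (G : Subgroup (Perm α))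
    (h2 : IsMultiplyPretransitive G α 2) {a b : α} (hab : a ≠ b) :
    Nat.card G = 110 * Nat.card (fixingSubgroup G ({a, b} : Set α)) := by
  have e2 := h2.index_of_fixingSubgroup_mul (s := {a, b}) (Set.ncard_pair hab)
  have e3 := (fixingSubgroup G ({a, b} : Set α)).index_mul_card
  rw [Nat.card_eq_fintype_card, hα] at e2
  norm_num [Nat.factorial] at e2
  rw [← e3]; congr 1; omega

omit [DecidableEq α] in
theorem ncard_compl3 (hα : Fintype.card α = 11) {a b c : α} (h1 : a ≠ b) (h2 : a ≠ c)
    (h3 : b ≠ c) : ({a, b, c}ᶜ : Set α).ncard = 8 := by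
  have := Set.ncard_add_ncard_compl ({a, b, c} : Set α)
  rw [Set.ncard_eq_three.2 ⟨a, b, c, h1, h2, h3, rfl⟩, Nat.card_eq_fintype_card] at this
  omega

theorem sharp (hα : Fintype.card α = 11) (G : Subgroup (Perm α))
    (h2 : IsMultiplyPretransitive G α 2) (hA : ¬ alternatingGroup α ≤ G)
    (hle : G ≤ alternatingGroup α) (hc : Nat.card G = 7920) (x : Fin 4 ↪ α) :
    stabilizer G x = ⊥ := by
  classical
  revert x
  refine H25.sharp_four_iff.2 fun a b c d hab hac had hbc hbd hcd g ga gb gc gd => ?_
  set H := fixingSubgroup G ({a, b} : Set α) with hH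
  have hmem : ∀ g : G, g ∈ H ↔ g • a = a ∧ g • b = b := by
    intro g; simp [hH, mem_fixingSubgroup_iff]
  have h72 : Nat.card H = 72 := by have := card_two hα G h2 hab; rw [← hH] at this; omega
  obtain ⟨Q⟩ : Nonempty (Sylow 2 H) := inferInstance
  have hQ : Nat.card (Q : Subgroup H) = 8 := by
    rw [Q.card_eq_multiplicity, h72]
    have : (72 : ℕ).factorization 2 = 3 := by
      rw [show (72 : ℕ) = 2 ^ 3 * 9 by norm_num,
        Nat.factorization_mul (by norm_num) (by norm_num), Nat.prime_two.factorization_pow]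
      simp [Nat.factorization_eq_zero_of_not_dvd]
    rw [this]; norm_num
  obtain ⟨c0, hca, hcb, hc0, horb⟩ := two_grp hα G h2 hA (R := (Q : Subgroup H)) Q.isPGroup'
    (fun r => r.1.1.2) (fun r => hle r.1.1.2) hab (fun r => ((hmem _).1 r.1.2).1)
    (fun r => ((hmem _).1 r.1.2).2)
  have hfull : ∀ d, d ≠ a → d ≠ b → d ≠ c0 → orbit (Q : Subgroup H) d = {a, b, c0}ᶜ := by
    intro d h1 h3 h4
    refine Set.eq_of_subset_of_ncard_le ?_ (by
      rw [horb d h1 h3 h4, hQ, ncard_compl3 hα hab hca.symm hcb.symm]) (Set.toFinite _)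
    rintro _ ⟨r, rfl⟩
    simp only [Set.mem_compl_iff, Set.mem_insert_iff, Set.mem_singleton_iff, not_or]
    refine ⟨fun h => h1 ?_, fun h => h3 ?_, fun h => h4 ?_⟩
    · exact smul_left_cancel r (h.trans ((hmem _).1 r.1.2).1.symm)
    · exact smul_left_cancel r (h.trans ((hmem _).1 r.1.2).2.symm)
    · exact smul_left_cancel r (h.trans (hc0 r).symm)
  have hsub : ∀ d, d ≠ a → d ≠ b → orbit H d ⊆ {a, b}ᶜ := by
    rintro d h1 h3 _ ⟨r, rfl⟩
    simp only [Set.mem_compl_iff, Set.mem_insert_iff, Set.mem_singleton_iff, not_or]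
    refine ⟨fun h => h1 ?_, fun h => h3 ?_⟩
    · exact smul_left_cancel r (h.trans ((hmem _).1 r.2).1.symm)
    · exact smul_left_cancel r (h.trans ((hmem _).1 r.2).2.symm)
  by_cases hfix : ∀ h : H, h • c0 = c0
  · exfalso
    obtain ⟨d0, hd0⟩ : ({a, b, c0}ᶜ : Set α).Nonempty :=
      Set.nonempty_of_ncard_ne_zero (by rw [ncard_compl3 hα hab hca.symm hcb.symm]; omega)
    have hd0' := hd0
    simp only [Set.mem_compl_iff, Set.mem_insert_iff, Set.mem_singleton_iff, not_or] at hd0'
    obtain ⟨h1, h3, h4⟩ := hd0'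
    have ho : orbit H d0 = {a, b, c0}ᶜ := by
      apply Set.Subset.antisymm
      · rintro _ ⟨r, rfl⟩
        have := hsub d0 h1 h3 (mem_orbit d0 r)
        simp only [Set.mem_compl_iff, Set.mem_insert_iff, Set.mem_singleton_iff, not_or] at this ⊢
        exact ⟨this.1, this.2, fun h => h4 (smul_left_cancel r (h.trans (hfix r).symm))⟩
      · rw [← hfull d0 h1 h3 h4]
        rintro _ ⟨r, rfl⟩
        exact ⟨r.1, rfl⟩
    have hi := (stabilizer H d0).card_mul_index
    rw [index_stabilizer, ho, ncard_compl3 hα hab hca.symm hcb.symm, h72] at hi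
    refine nine hα G h2 hA (R := stabilizer H d0) (by omega) (fun r => r.1.1.2) {a, b, c0, d0}
      (Finset.card_eq_four.2 ⟨a, b, c0, d0, hab, hca.symm, Ne.symm h1, hcb.symm, Ne.symm h3,
        Ne.symm h4, rfl⟩) ?_
    intro r x hx
    simp only [Finset.mem_insert, Finset.mem_singleton] at hx
    rcases hx with rfl | rfl | rfl | rfl
    exacts [((hmem _).1 r.1.2).1, ((hmem _).1 r.1.2).2, hfix r.1, r.2]
  · push Not at hfix
    obtain ⟨h, hh⟩ := hfix
    have ho : orbit H c0 = {a, b}ᶜ := by
      refine (hsub c0 hca hcb).antisymm fun y hy => ?_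
      by_cases e : y = c0
      · rw [e]; exact mem_orbit_self _
      have h1 := hsub c0 hca hcb (mem_orbit c0 h)
      simp only [Set.mem_compl_iff, Set.mem_insert_iff, Set.mem_singleton_iff, not_or] at h1 hy
      have : y ∈ orbit (Q : Subgroup H) (h • c0) := by
        rw [hfull _ h1.1 h1.2 hh]
        simp only [Set.mem_compl_iff, Set.mem_insert_iff, Set.mem_singleton_iff, not_or]
        exact ⟨hy.1, hy.2, e⟩
      obtain ⟨r, rfl⟩ := this
      exact ⟨r.1 * h, mul_smul _ _ _⟩
    have hcm : c ∈ orbit H c0 := by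
      rw [ho]
      simp only [Set.mem_compl_iff, Set.mem_insert_iff, Set.mem_singleton_iff, not_or]
      exact ⟨hac.symm, hbc.symm⟩
    have h9 : ({a, b}ᶜ : Set α).ncard = 9 := by
      have := Set.ncard_add_ncard_compl ({a, b} : Set α)
      rw [Set.ncard_pair hab, Nat.card_eq_fintype_card] at this
      omega
    have hi := (stabilizer H c).card_mul_index
    rw [index_stabilizer, orbit_eq_iff.2 hcm, ho, h9, h72] at hi
    have h8 : Nat.card (stabilizer H c) = 2 ^ 3 := by omega
    have hp := pow_card_eq_one' (G := stabilizer H c) (x := ⟨⟨g, (hmem g).2 ⟨ga, gb⟩⟩, gc⟩)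
    rw [h8] at hp
    have := supp_le (u := g.1) {a, b, c, d} (by
      intro x hx
      simp only [Finset.mem_insert, Finset.mem_singleton] at hx
      rcases hx with rfl | rfl | rfl | rfl
      exacts [ga, gb, gc, gd])
    rw [Finset.card_eq_four.2 ⟨a, b, c, d, hab, hac, had, hbc, hbd, hcd, rfl⟩] at this
    exact Subtype.ext (two_fix hα G h2 hA g.2 (hle g.2) (k := 3)
      (congrArg (fun z => z.1.1.1) hp) (by omega))

omit [DecidableEq α] in
theorem four (hα : Fintype.card α = 11) (G : Type*) [Group G] [MulAction G α]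
    (hc : Nat.card G = 7920)
    (hs : ∀ x : Fin 4 ↪ α, stabilizer G x = ⊥) : IsMultiplyPretransitive G α 4 := by
  refine ⟨fun x y => ?_⟩
  have : orbit G x = Set.univ := by
    refine Set.eq_of_subset_of_ncard_le (Set.subset_univ _) ?_ (Set.toFinite _)
    rw [← index_stabilizer, hs, index_bot, hc, Set.ncard_univ, Nat.card_eq_fintype_card,
      Fintype.card_embedding_eq, hα, Fintype.card_fin]
    decide
  exact (this ▸ Set.mem_univ y : y ∈ orbit G x)

theorem not_big (hα : Fintype.card α = 11) (G : Subgroup (Perm α))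
    (h4 : IsMultiplyPretransitive G α 4) (hA : ¬ alternatingGroup α ≤ G)
    (hc : Nat.card G = 15840) : False := by
  classical
  have h6 : ∀ u ∈ G, u.support.card < 6 → u = 1 := fun u hu h => by
    by_contra h1
    exact hA (Cfsg.Agent.S0711.result G (k := 4) (by norm_num) (by omega) h4 u hu h1
      (by omega)).2
  have hst : ∀ x : Fin 4 ↪ α, Nat.card (stabilizer G x) = 2 := fun x => by
    have := H25.card_of_multi h4 x
    rw [hα, hc, show Nat.descFactorial 11 4 = 7920 by decide] at this
    have e : 15840 = 7920 * Nat.card (stabilizer G x) := this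
    omega
  -- uniqueness of the nontrivial element fixing four points
  have huniq : ∀ a b c d : α, a ≠ b → a ≠ c → a ≠ d → b ≠ c → b ≠ d → c ≠ d →
      ∃ t : G, t ≠ 1 ∧ t * t = 1 ∧ t • a = a ∧ t • b = b ∧ t • c = c ∧ t • d = d ∧
        ∀ s : G, s ≠ 1 → s • a = a → s • b = b → s • c = c → s • d = d → s = t := by
    intro a b c d h1 h2 h3 h5 h7 h8
    let x : Fin 4 ↪ α := ⟨![a, b, c, d], H25.inj_vec4 h1 h2 h3 h5 h7 h8⟩
    have hm : ∀ s : G, s ∈ stabilizer G x ↔ s • a = a ∧ s • b = b ∧ s • c = c ∧ s • d = d := by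
      intro s
      rw [mem_stabilizer_iff]
      constructor
      · intro h
        exact ⟨DFunLike.congr_fun h 0, DFunLike.congr_fun h 1, DFunLike.congr_fun h 2,
          DFunLike.congr_fun h 3⟩
      · rintro ⟨e1, e2, e3, e4⟩
        ext i
        fin_cases i
        exacts [e1, e2, e3, e4]
    obtain ⟨t, ht, hu⟩ := (Nat.card_eq_two_iff' (1 : stabilizer G x)).1 (hst x)
    obtain ⟨e1, e2, e3, e4⟩ := (hm _).1 t.2
    refine ⟨t.1, fun h => ht (Subtype.ext h), ?_, e1, e2, e3, e4, fun s hs f1 f2 f3 f4 => ?_⟩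
    · have := pow_card_eq_one' (x := t)
      rw [hst, pow_two] at this
      exact congrArg Subtype.val this
    · exact congrArg Subtype.val
        (hu ⟨s, (hm s).2 ⟨f1, f2, f3, f4⟩⟩ fun h => hs (congrArg Subtype.val h))
  obtain ⟨s, -, hs⟩ := Finset.exists_subset_card_eq (s := (Finset.univ : Finset α)) (n := 4)
    (by rw [Finset.card_univ]; omega)
  obtain ⟨a, b, c, d, hab, hac, had, hbc, hbd, hcd, rfl⟩ := Finset.card_eq_four.1 hs
  obtain ⟨t, ht1, htt, ta, tb, tc, td, -⟩ := huniq a b c d hab hac had hbc hbd hcd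
  have ho : orderOf t.1 = 2 := orderOf_eq_prime (by
    rw [pow_two]; exact congrArg Subtype.val htt) fun h => ht1 (Subtype.ext h)
  obtain ⟨k, -, hk, -⟩ := H25.support_prime_order Nat.prime_two ho
  have hl := supp_le (u := t.1) {a, b, c, d} (by
    intro x hx
    simp only [Finset.mem_insert, Finset.mem_singleton] at hx
    rcases hx with rfl | rfl | rfl | rfl
    exacts [ta, tb, tc, td])
  have hg6 : ¬ t.1.support.card < 6 := fun h => ht1 (Subtype.ext (h6 _ t.2 h))
  have hs6 : t.1.support.card = 6 := by omega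
  have h5 : (t.1.support)ᶜ.card = 5 := by rw [Finset.card_compl]; omega
  have hsub : ({a, b, c, d} : Finset α) ⊆ (t.1.support)ᶜ := by
    intro x hx
    simp only [Finset.mem_insert, Finset.mem_singleton] at hx
    rw [Finset.mem_compl, notMem_support]
    rcases hx with rfl | rfl | rfl | rfl
    exacts [ta, tb, tc, td]
  obtain ⟨e, he, he'⟩ := Finset.exists_mem_notMem_of_card_lt_card
    (s := {a, b, c, d}) (t := (t.1.support)ᶜ) (by omega)
  have hF : (t.1.support)ᶜ = insert e {a, b, c, d} := by
    refine (Finset.eq_of_subset_of_card_le (Finset.insert_subset he hsub) ?_).symm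
    rw [Finset.card_insert_of_notMem he']; omega
  have te : t • e = e := notMem_support.1 (Finset.mem_compl.1 he)
  simp only [Finset.mem_insert, Finset.mem_singleton, not_or] at he'
  obtain ⟨ea, eb, ec, ed⟩ := he'
  obtain ⟨g, g1, g2, g3, g4⟩ := H25.four_trans_iff.1 h4 a b c d b c d e hab hac had hbc hbd hcd
    hbc hbd (Ne.symm eb) hcd (Ne.symm ec) (Ne.symm ed)
  obtain ⟨t', -, -, -, -, -, -, hu⟩ := huniq b c d e hbc hbd (Ne.symm eb) hcd (Ne.symm ec)
    (Ne.symm ed)
  have hcomm : g * t * g⁻¹ = t := by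
    refine (hu _ (by simpa using ht1) ?_ ?_ ?_ ?_).trans (hu t ht1 tb tc td te).symm
    · rw [← g1, mul_smul, mul_smul, inv_smul_smul, ta]
    · rw [← g2, mul_smul, mul_smul, inv_smul_smul, tb]
    · rw [← g3, mul_smul, mul_smul, inv_smul_smul, tc]
    · rw [← g4, mul_smul, mul_smul, inv_smul_smul, td]
  have hcm : Commute g t := by
    rw [mul_inv_eq_iff_eq_mul] at hcomm; exact hcomm
  have g5 : g • e = a := by
    have : g • e ∈ (t.1.support)ᶜ := by
      rw [Finset.mem_compl, notMem_support]
      change t • g • e = g • e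
      rw [← mul_smul, ← hcm.eq, mul_smul, te]
    rw [hF] at this
    simp only [Finset.mem_insert, Finset.mem_singleton] at this
    rcases this with h | h | h | h | h
    · exact absurd (smul_left_cancel g (h.trans g4.symm)) ed
    · exact h
    · exact absurd (smul_left_cancel g (h.trans g1.symm)) ea
    · exact absurd (smul_left_cancel g (h.trans g2.symm)) eb
    · exact absurd (smul_left_cancel g (h.trans g3.symm)) ec
  have hd5 : 5 ∣ orderOf g := by
    by_contra h
    obtain ⟨m, hm⟩ := exists_pow_eq_self_of_coprime (x := g) (n := 5)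
      ((Nat.Prime.coprime_iff_not_dvd (by norm_num)).2 h)
    have : g ^ 5 ∈ stabilizer G a := by
      rw [mem_stabilizer_iff, show g ^ 5 = g * g * g * g * g by
        simp only [pow_succ, pow_zero, one_mul]]
      simp only [mul_smul, g1, g2, g3, g4, g5]
    have := pow_mem this m
    rw [hm, mem_stabilizer_iff, g1] at this
    exact hab this.symm
  have hy := orderOf_pow_orderOf_div (orderOf_pos g).ne' hd5
  set y := g ^ (orderOf g / 5) with hydef
  have hyc : Commute y t := hcm.pow_left _
  have hy' : orderOf y.1 = 5 := by rw [Subgroup.orderOf_coe, hy]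
  obtain ⟨j, -, hj, -⟩ := H25.support_prime_order (by norm_num) hy'
  have hy6 : ¬ y.1.support.card < 6 := fun h => by
    rw [show y = 1 from Subtype.ext (h6 _ y.2 h), orderOf_one] at hy; omega
  have hle := Finset.card_le_univ y.1.support
  have h1 : (y.1.support)ᶜ.card = 1 := by rw [Finset.card_compl]; omega
  obtain ⟨z, hz⟩ := Finset.card_eq_one.1 h1
  have hzf : ∀ w, y • w = w → w = z := fun w hw => by
    have : w ∈ (y.1.support)ᶜ := by rw [Finset.mem_compl, notMem_support]; exact hw
    rwa [hz, Finset.mem_singleton] at this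
  have hz0 : y • z = z := notMem_support.1 (Finset.mem_compl.1 (hz ▸ Finset.mem_singleton_self z))
  have := H25.prime_dvd_card_of_invariant (by norm_num) hy' t.1.support (by
    intro x hx
    rw [mem_support] at hx ⊢
    intro h
    apply hx
    have h' : t • y • x = y • x := h
    rw [← mul_smul, ← hyc.eq, mul_smul] at h'
    exact smul_left_cancel y h') (by
    intro x hx h
    have e1 := hzf x h
    have e2 := hzf (t • z) (by rw [← mul_smul, hyc.eq, mul_smul, hz0])
    rw [e1] at hx
    exact mem_support.1 hx e2)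
  omega

end H19.D11
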