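import Cfsg.Agent.H19.Pim
import Cfsg.Agent.H3.SylowIn

/-! Counting in `p`-permutation modules: lower bounds for the rank of an invariant idempotent
matrix. -/

open Subgroup Finset MulAction

namespace H19

section
variable {T X k : Type*} [Group T] [Finite T] [MulAction T X] [Fintype X] [Field k] {p : ℕ}
  [hp : Fact p.Prime] [CharP k p] {E : Matrix X X k} {R R' : Subgroup T}

/-- the Brauer quotient of the image of `E` at `R` is non-zero -/
def Good (E : Matrix X X k) (R : Subgroup T) : Prop :=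
  ∃ x y, R ≤ stabilizer T x ∧ R ≤ stabilizer T y ∧ E x y ≠ 0

theorem sum_fix (hR : IsPGroup p R) (f : X → k) (hf : ∀ t ∈ R, ∀ x, f (t • x) = f x)
    [DecidablePred fun x : X => R ≤ stabilizer T x] :
    ∑ x, f x = ∑ x with R ≤ stabilizer T x, f x := by
  classical
  rw [H20.sum_eq_sum_fixed (p := p) (fun m => by rw [nsmul_eq_mul, CharP.cast_eq_zero, zero_mul])
    (fun (t : T) (x : X) => t • x) (one_smul T) mul_smul hR univ (by simp) f
    fun t ht x _ => hf t ht x]
  exact sum_congr (filter_congr fun x _ => Iff.rfl) fun _ _ => rfl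

omit [Finite T] [Fintype X] in
theorem le_stab_smul {x : X} {t : T} (ht : t ∈ normalizer (R : Set T)) :
    R ≤ stabilizer T (t • x) ↔ R ≤ stabilizer T x := by
  refine ⟨fun h r hr => ?_, fun h r hr => ?_⟩
  · have : (t * r * t⁻¹) • t • x = t • x := h ((mem_normalizer_iff.1 ht r).1 hr)
    simpa [mul_smul] using this
  · have : (t⁻¹ * r * t) • x = x := h (by simpa using (mem_normalizer_iff.1 (inv_mem ht) r).1 hr)
    rw [mem_stabilizer_iff, ← mul_smul]
    conv_rhs => rw [← this, ← mul_smul]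
    congr 1; group

open Classical in
theorem exists_free (hT : IsPGroup p T) (hE : E * E = E)
    (hi : ∀ (t : T) x y, E (t • x) (t • y) = E x y) (h : Maximal (Good E) R) :
    ∃ x y, R ≤ stabilizer T x ∧ stabilizer T y = R ∧ ∑ z with z ∈ orbit T y, E x z ≠ 0 := by
  set N := normalizer (R : Set T)
  letI : DistribMulAction N (X → k) :=
    { smul := fun t m x => m ((t⁻¹ : T) • x)
      one_smul := fun m => funext fun x => congrArg m (by simp)
      mul_smul := fun s t m => funext fun x => congrArg m (by simp [mul_smul])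
      smul_zero := fun _ => rfl
      smul_add := fun _ _ _ => rfl }
  let W : AddSubgroup (X → k) :=
    { carrier := {m | (∀ x, ¬ R ≤ stabilizer T x → m x = 0) ∧ ∀ x, R ≤ stabilizer T x →
        m x = ∑ y, E x y * m y}
      add_mem' := fun {a b} ha hb => ⟨fun x hx => by simp [ha.1 x hx, hb.1 x hx], fun x hx => by
        simp [mul_add, sum_add_distrib, ← ha.2 x hx, ← hb.2 x hx]⟩
      zero_mem' := by simp
      neg_mem' := fun {a} ha => ⟨fun x hx => by simp [ha.1 x hx], fun x hx => by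
        simp [← ha.2 x hx]⟩ }
  have hs : ∀ (t : N) (m : X → k) x, (t • m) x = m ((t⁻¹ : T) • x) := fun _ _ _ => rfl
  have hx' : ∀ {U : Subgroup T} {x : X}, U ≤ stabilizer T x → ∀ {t}, t ∈ U → ∀ y,
      E x (t • y) = E x y := fun h t ht y => by rw [← hi t _ y, h ht]
  obtain ⟨x0, y0, h1, h2, h3⟩ := h.1
  obtain ⟨m, ⟨m1, m2⟩, m0, mf⟩ := H25.exists_fixed_vector (hT.to_subgroup N)
    (fun v => by ext x; simp) W (fun t w hw => ⟨fun x hx => by
      rw [hs, hw.1 _ (by rwa [le_stab_smul (inv_mem t.2)])], fun x hx => by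
      rw [hs, hw.2 _ (by rwa [le_stab_smul (inv_mem t.2)]),
        ← Equiv.sum_comp (MulAction.toPerm (t⁻¹ : T))]
      exact sum_congr rfl fun y _ => congrArg (· * _) (hi _ _ _)⟩) (w := fun x => if R ≤ stabilizer T x then E x y0 else 0)
    ⟨fun x hx => if_neg hx, fun x hx => by
      have := sum_fix (hT.to_subgroup R) (fun y => E x y * E y y0) fun t ht y => by
        rw [hx' hx ht, ← hi t y y0, h2 ht]
      rw [← Matrix.mul_apply, hE, sum_filter] at this
      simpa [hx] using this⟩ (fun e => h3 (by simpa [h1] using congrFun e x0))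
  have mf' : ∀ t ∈ N, ∀ x, m (t • x) = m x := fun t ht x => by
    rw [← congrFun (mf ⟨t, ht⟩) (t • x), hs, inv_smul_smul]
  have key : ∀ x, m x ≠ 0 → stabilizer T x = R := fun x hx => by
    have h4 : R ≤ stabilizer T x := by_contra fun e => hx (m1 x e)
    by_contra e
    have h5 := H3.lt_inf_normalizer_of_isPGroup (hT.to_subgroup _) (lt_of_le_of_ne h4 (Ne.symm e))
    refine hx ((m2 x h4).trans ((sum_fix (hT.to_subgroup (stabilizer T x ⊓ N)) _
      fun t ht y => ?_).trans (sum_eq_zero fun y hy => ?_)))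
    · rw [hx' inf_le_left ht, mf' t ht.2]
    · by_contra e'
      exact h5.not_ge (h.2 ⟨x, y, inf_le_left, (mem_filter.1 hy).2, left_ne_zero_of_mul e'⟩ h5.le)
  obtain ⟨x, hx⟩ := Function.ne_iff.1 m0
  have h4 := (key x hx).ge
  rw [m2 x h4, ← sum_fiberwise univ (fun y => orbit T y)] at hx
  obtain ⟨o, -, h5⟩ := exists_ne_zero_of_sum_ne_zero hx
  obtain ⟨y, h6, h7⟩ := exists_ne_zero_of_sum_ne_zero h5
  have h8 := key y (right_ne_zero_of_mul h7)
  refine ⟨x, y, h4, h8, fun e => h5 ?_⟩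
  have := sum_fix (hT.to_subgroup R) (fun z => if z ∈ orbit T y then E x z else 0) fun t ht z => by
    simp only [← orbit_eq_iff, orbit_smul, hx' h4 ht]
  rw [← sum_filter, e, sum_filter] at this
  rw [← zero_mul (m y), this, sum_filter, sum_mul]
  refine sum_congr rfl fun z _ => ?_
  simp only [← (mem_filter.1 h6).2, orbit_eq_iff]
  by_cases hz : z ∈ orbit T y
  · by_cases hz' : R ≤ stabilizer T z
    · obtain ⟨t, rfl⟩ := hz
      have h9 : stabilizer T (t • y) = R := (eq_of_le_of_card_ge hz' (by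
        rw [stabilizer_smul_eq_stabilizer_map_conj, h8, card_map_of_injective
          (MulAut.conj t).injective])).symm
      rw [stabilizer_smul_eq_stabilizer_map_conj, h8] at h9
      simp only [hz', mem_orbit, if_true]
      rw [mf' t (mem_normalizer_iff_map_conj_eq.2 h9)]
    · simp [hz', m1 z hz']
  · simp [hz]

open Classical in
theorem li_two (hT : IsPGroup p T) (hE : E * E = E)
    (hi : ∀ (t : T) x y, E (t • x) (t • y) = E x y) (h : Maximal (Good E) R)
    (h' : Maximal (Good E) R') (hn : ∀ t : T, ¬ R ≤ R'.map (MulAut.conj t).toMonoidHom) :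
    ∃ Y : Finset X, Y.card = R.index + R'.index ∧ ∀ c : X → k, (∀ y ∉ Y, c y = 0) →
      (∀ x, ∑ y, E x y * c y = 0) → c = 0 := by
  obtain ⟨x, y, h1, rfl, h3⟩ := exists_free hT hE hi h
  obtain ⟨x', y', h1', rfl, h3'⟩ := exists_free hT hE hi h'
  have h4 : ∀ z ∈ orbit T y', ¬ stabilizer T y ≤ stabilizer T z := by
    rintro _ ⟨t, rfl⟩ e
    exact hn t (stabilizer_smul_eq_stabilizer_map_conj t y' ▸ e)
  have h5 : Disjoint (univ.filter (· ∈ orbit T y)) (univ.filter (· ∈ orbit T y')) :=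
    disjoint_filter.2 fun z _ a b => h4 y (by
      rw [← orbit_eq_iff] at a b; rw [← b, a]; exact mem_orbit_self y) le_rfl
  refine ⟨_ ∪ _, by
    rw [card_union_of_disjoint h5, index_stabilizer, index_stabilizer, Set.ncard_eq_toFinset_card',
      Set.ncard_eq_toFinset_card', Set.filter_mem_univ_eq_toFinset,
      Set.filter_mem_univ_eq_toFinset], fun c c1 c2 => by_contra fun c0 => ?_⟩
  letI : DistribMulAction T (X → k) :=
    { smul := fun t m x => m (t⁻¹ • x)
      one_smul := fun m => funext fun x => congrArg m (by simp)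
      mul_smul := fun s t m => funext fun x => congrArg m (by simp [mul_smul])
      smul_zero := fun _ => rfl
      smul_add := fun _ _ _ => rfl }
  have hs : ∀ (t : T) (m : X → k) x, (t • m) x = m (t⁻¹ • x) := fun _ _ _ => rfl
  let W : AddSubgroup (X → k) :=
    { carrier := {m | (∀ z, z ∉ orbit T y → z ∉ orbit T y' → m z = 0) ∧
        ∀ x, ∑ y, E x y * m y = 0}
      add_mem' := fun {a b} ha hb => ⟨fun x hx hx' => by simp [ha.1 x hx hx', hb.1 x hx hx'],
        fun x => by simp [mul_add, sum_add_distrib, ha.2 x, hb.2 x]⟩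
      zero_mem' := by simp
      neg_mem' := fun {a} ha => ⟨fun x hx hx' => by simp [ha.1 x hx hx'], fun x => by
        simp [ha.2 x]⟩ }
  obtain ⟨m, ⟨m1, m2⟩, m0, mf⟩ := H25.exists_fixed_vector hT
    (fun v => by ext x; simp) W (fun t w hw => ⟨fun x hx hx' => by
      rw [hs, hw.1] <;> rwa [← orbit_eq_iff, orbit_smul, orbit_eq_iff], fun x => by
      rw [← hw.2 (t⁻¹ • x), ← Equiv.sum_comp (MulAction.toPerm t⁻¹) fun y => _ * w y]
      exact sum_congr rfl fun y _ => congrArg (· * _) (hi _ _ _).symm⟩)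
    ⟨fun z a b => c1 z (by simp [a, b]), c2⟩ c0
  have mf' : ∀ (t : T) x, m (t • x) = m x := fun t x => by
    rw [← congrFun (mf t) (t • x), hs, inv_smul_smul]
  have h6 : ∀ x, (∑ z with z ∈ orbit T y, E x z) * m y +
      (∑ z with z ∈ orbit T y', E x z) * m y' = 0 := fun x => by
    rw [← m2 x, sum_mul, sum_mul, ← sum_subset (subset_univ (_ ∪ _)) fun z _ hz => by
      rw [m1 z (by simpa using fun a => hz (mem_union_left _ (mem_filter.2 ⟨mem_univ _, a⟩)))
        (fun a => hz (mem_union_right _ (mem_filter.2 ⟨mem_univ _, a⟩))), mul_zero],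
      sum_union h5]
    congr 1 <;> refine sum_congr rfl fun z hz => ?_ <;> obtain ⟨t, rfl⟩ := (mem_filter.1 hz).2 <;>
      simp only [mf']
  have h7 : ∑ z with z ∈ orbit T y', E x z = 0 := by
    rw [sum_filter, sum_fix (hT.to_subgroup (stabilizer T y)) _ fun t ht z => by
      simp only [← orbit_eq_iff, orbit_smul]; rw [← hi t x z, h1 ht]]
    exact sum_eq_zero fun z hz => if_neg fun a => h4 z a (mem_filter.1 hz).2
  have h8 : m y = 0 := by simpa [h7, h3] using h6 x
  have h9 : m y' = 0 := by simpa [h8, h3'] using h6 x'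
  refine m0 (funext fun z => by_contra fun e => e (m1 z ?_ ?_)) <;> rintro ⟨t, rfl⟩
  · exact e ((mf' t y).trans h8)
  · exact e ((mf' t y').trans h9)

end

open scoped MonoidAlgebra
open Cfsg H17
open H20 (eG br cent IsBlk)

variable {G : Type*} [Group G] [Finite G] {O : ValuationSubring ℂ} {p : ℕ} [hp : Fact p.Prime]
  [CharP (kk O) p]

omit hp [CharP (kk O) p] in
theorem finrank_block (β : Blk O G) [DecidablePred (· ∈ irr β)] :
    Module.finrank (kk O) (LinearMap.range (LinearMap.mulLeft (kk O) (eG β))) =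
      ∑ χ with χ ∈ irr β, charDegree (χ : G → ℂ) ^ 2 := by
  have h1 := H20.finrank_range_eq (O := O) (T := LinearMap.mulLeft ℂ (fB (irr β)))
    (T' := LinearMap.mulLeft (kk O) (eG β)) (fun a ha => ⟨mul_mem (fB_irr_mem_OG β) ha,
      red_mul (fB_irr_mem_OG β) ha⟩)
    (by rw [IsIdempotentElem, Module.End.mul_eq_comp, ← LinearMap.mulLeft_mul, fB_mul_self])
    (by rw [IsIdempotentElem, Module.End.mul_eq_comp, ← LinearMap.mulLeft_mul, (H20.eG_idem β).eq])
  have h2 := H20.trace_mulLeftRight (fB (irr β)) 1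
  rw [show LinearMap.mulLeftRight ℂ (fB (irr β), 1) = LinearMap.mulLeft ℂ (fB (irr β)) from
    LinearMap.ext fun a => by simp, ← h1] at h2
  refine Nat.cast_injective (R := ℂ) (h2.trans ?_)
  rw [Nat.cast_sum, sum_filter]
  refine sum_congr rfl fun χ _ => ?_
  rw [ev_fB, ev_one]
  split_ifs <;> simp [cast_deg, sq]

/-- Fusion in a block of minimal dimension is induced by a Sylow subgroup. -/
theorem fusion_of_min {β : Blk O G} [DecidablePred (· ∈ irr β)] {D S Q : Subgroup G}
    (hD : H20.IsDef p ⊤ (eG β) D) (hS : IsPGroup p S) (hDS : D ≤ S)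
    (h : (∑ χ with χ ∈ irr β, charDegree (χ : G → ℂ) ^ 2) * Nat.card D ≤ Nat.card S ^ 2)
    (hQ : Q ≤ S) (h0 : br Q (eG β) ≠ 0) {g : G} (hg : ∀ u ∈ Q, g⁻¹ * u * g ∈ S) :
    ∃ s ∈ S, ∀ u ∈ Q, g⁻¹ * u * g = s⁻¹ * u * s := by
  classical
  have := Fintype.ofFinite G
  letI : MulAction (S × S) G :=
    { smul := fun t x => t.1 * x * (t.2 : G)⁻¹
      one_smul := fun x => show ((1 : S) : G) * x * ((1 : S) : G)⁻¹ = x by simp
      mul_smul := fun s t x => show ((s.1 * t.1 : S) : G) * x * ((s.2 * t.2 : S) : G)⁻¹ =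
        s.1 * (t.1 * x * (t.2 : G)⁻¹) * (s.2 : G)⁻¹ by simp [mul_assoc] }
  have hs : ∀ (t : S × S) (x : G), t • x = t.1 * x * (t.2 : G)⁻¹ := fun _ _ => rfl
  let E : Matrix G G (kk O) := fun x y => (eG β).coeff (x * y⁻¹)
  have hE : ∀ (a : (kk O)[G]) x, (eG β * a).coeff x = ∑ y, E x y * a.coeff y := fun a x => by
    rw [H20.coeff_mul_right]
  have hc : ∀ R : Subgroup (S × S), Good E R → Nat.card R ≤ Nat.card D := by
    rintro R ⟨x, y, h1, h2, h3⟩
    have h4 := hD.card_le (H20.isPrim_eG β) (P := R.map (S.subtype.comp (MonoidHom.fst S S)))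
      (hS.to_le (by rintro _ ⟨t, -, rfl⟩; exact t.1.2)) le_top fun e => h3
      (H20.br_eq_zero_iff.1 e _ (by
        rintro _ ⟨t, ht, rfl⟩
        have a : t.1 * x * (t.2 : G)⁻¹ = x := h1 ht
        have b : t.1 * y * (t.2 : G)⁻¹ = y := h2 ht
        show t.1 * _ = _ * (t.1 : G)
        conv_rhs => rw [← a, ← b]
        group))
    refine le_trans (Nat.card_le_card_of_injective (fun t => (⟨_, mem_map_of_mem _ t.2⟩ :
      R.map (S.subtype.comp (MonoidHom.fst S S)))) fun t t' e => ?_) h4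
    have e1 : (t.1.1 : G) = t'.1.1 := by simpa using e
    have a : t.1.1 * x * (t.1.2 : G)⁻¹ = t'.1.1 * x * (t'.1.2 : G)⁻¹ := (h1 t.2).trans (h1 t'.2).symm
    rw [e1, mul_right_inj, inv_inj] at a
    exact Subtype.ext (Prod.ext (Subtype.ext e1) (Subtype.ext a))
  have hgood : ∀ {Q : Subgroup G} (g : G), br Q (eG β) ≠ 0 → Good E
      (Q.comap (S.subtype.comp (MonoidHom.fst S S)) ⊓ stabilizer (S × S) g) := fun {Q} g h => by
    obtain ⟨c, h1, h2⟩ : ∃ c ∈ cent Q, (eG β).coeff c ≠ 0 := by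
      simpa [H20.br_eq_zero_iff] using h
    refine ⟨c * g, g, fun t ht => ?_, inf_le_right, by simpa [E] using h2⟩
    have a : t.1 * g * (t.2 : G)⁻¹ = g := ht.2
    have b : t.1 * c = c * t.1 := h1 _ ht.1
    rw [mem_stabilizer_iff, hs, ← mul_assoc, b, mul_assoc c, mul_assoc c, a]
  set R := D.comap (S.subtype.comp (MonoidHom.fst S S)) ⊓ stabilizer (S × S) (1 : G)
  have hR : Nat.card D ≤ Nat.card R := Nat.card_le_card_of_injective
    (fun u => ⟨(⟨u, hDS u.2⟩, ⟨u, hDS u.2⟩), u.2, show (u : G) * 1 * (u : G)⁻¹ = 1 by simp⟩)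
    fun u v e => Subtype.ext (congrArg (fun t : R => (t.1.1 : G)) e)
  obtain ⟨R', h1, h2⟩ := Finite.exists_le_maximal (hgood g h0)
  have hT : IsPGroup p (S × S) := by
    obtain ⟨n, hn⟩ := IsPGroup.iff_card.1 hS
    exact IsPGroup.of_card (n := n + n) (by rw [Nat.card_prod, hn, pow_add])
  obtain ⟨t, ht⟩ : ∃ t : S × S, R ≤ R'.map (MulAut.conj t).toMonoidHom := by
    by_contra! hn
    obtain ⟨Y, h3, h4⟩ := li_two hT (E := E) (by
      ext x y
      have := hE (eG β * .single y 1) x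
      rw [← mul_assoc, (H20.eG_idem β).eq] at this
      simpa [Matrix.mul_apply, MonoidAlgebra.coeff_mul_single_apply] using this.symm)
      (fun t x y => by
        have := coeff_eq_of_isConj (eB β).2 (isConj_iff.2 ⟨t.1, (rfl : (t.1 : G) * (x * y⁻¹) * _ = _)⟩)
        simpa [E, hs, mul_assoc] using this)
      ⟨hgood 1 hD.ne, fun U hU h => (eq_of_le_of_card_ge h ((hc U hU).trans hR)).ge⟩ h2 hn
    have h5 := H20.card_le_of_li (S := LinearMap.range (LinearMap.mulLeft (kk O) (eG β)))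
      (b := fun y : Y => eG β * .single (y : G) 1) (fun y => ⟨_, rfl⟩)
      (Fintype.linearIndependent_iff.2 fun c hc y => by
        have := congrFun (h4 (fun z => if h : z ∈ Y then c ⟨z, h⟩ else 0) (fun z hz => dif_neg hz)
          fun x => by
            have := congrArg (fun a => a.coeff x) hc
            rw [← sum_subset (subset_univ Y) fun z _ hz => by simp [hz], ← sum_coe_sort]
            simpa [coeff_sum_apply, MonoidAlgebra.coeff_mul_single_apply, E, mul_comm] using this) y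
        simpa using this)
    rw [finrank_block, Fintype.card_coe, h3] at h5
    have h6 := R.index_mul_card
    have h7 := Nat.pos_of_ne_zero R'.index_ne_zero_of_finite
    have h8 := hc R (hgood 1 hD.ne)
    rw [Nat.card_prod, ← sq] at h6
    have := Nat.card_pos (α := D)
    nlinarith [Nat.mul_le_mul_left R.index h8, Nat.mul_le_mul_right (Nat.card D) h5]
  have h3 := eq_of_le_of_card_ge ht (by
    rw [card_map_of_injective (MulAut.conj t).injective]; exact (hc _ h2.1).trans hR)
  refine ⟨t.1⁻¹ * t.2, mul_mem (inv_mem t.1.2) t.2.2, fun u hu => ?_⟩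
  have h4 := (h3.ge (mem_map_of_mem _ (h1 (x := (⟨u, hQ hu⟩, ⟨_, hg u hu⟩))
    ⟨hu, show u * g * (g⁻¹ * u * g)⁻¹ = g by group⟩))).2
  have h5 : (t.1 : G) * u * (t.1 : G)⁻¹ * 1 * (t.2 * (g⁻¹ * u * g) * (t.2 : G)⁻¹)⁻¹ = 1 := h4
  rw [mul_one, mul_inv_eq_one] at h5
  calc _ = (t.2 : G)⁻¹ * (t.2 * (g⁻¹ * u * g) * (t.2 : G)⁻¹) * t.2 := by group
    _ = _ := by rw [← h5]; simp [mul_assoc]

end H19
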